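import Mathlib
import Cfsg.Agent.Lib.Helper69.BG40.Defs
import Cfsg.Agent.Lib.Helper61.BG40.Prod

/-!
# S1440 project, abstract package PKea2
-/

set_option autoImplicit false

namespace Cfsg.Agent.Lib.Helper61.BG40

universe u

theorem pkEa2 : Cfsg.Agent.Lib.Helper69.BG40.PKea2.{u} := by
  intro G _ _ p _ x z hx hz hc hxz
  have hp : p.Prime := Fact.out
  have hcomm : ∀ a ∈ Subgroup.zpowers x, ∀ b ∈ Subgroup.zpowers z, a * b = b * a := by
    intro a ha b hb
    obtain ⟨i, rfl⟩ := Subgroup.mem_zpowers_iff.1 ha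
    obtain ⟨j, rfl⟩ := Subgroup.mem_zpowers_iff.1 hb
    have h1 : Commute x z := hc
    exact (h1.zpow_zpow i j).eq
  have hd : Subgroup.zpowers x ⊓ Subgroup.zpowers z = ⊥ := by
    rw [eq_bot_iff]
    intro y hy
    rw [Subgroup.mem_bot]
    obtain ⟨hy1, hy2⟩ := Subgroup.mem_inf.1 hy
    obtain ⟨a, rfl⟩ := Subgroup.mem_zpowers_iff.1 hy1
    by_cases hdvd : (p : ℤ) ∣ a
    · rw [← hx] at hdvd
      exact orderOf_dvd_iff_zpow_eq_one.1 hdvd
    · exfalso
      have hcop : IsCoprime a (p : ℤ) := by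
        rw [isCoprime_comm]
        exact (Nat.prime_iff_prime_int.1 hp).coprime_iff_not_dvd.2 hdvd
      obtain ⟨s, t, hst⟩ := hcop
      apply hxz
      have h1 : x = (x ^ a) ^ s := by
        have h2 : x ^ (p : ℤ) = 1 := by
          rw [zpow_natCast, ← hx, pow_orderOf_eq_one]
        calc x = x ^ (s * a + t * p) := by rw [hst, zpow_one]
          _ = (x ^ a) ^ s * (x ^ (p : ℤ)) ^ t := by
            rw [zpow_add, mul_comm s a, zpow_mul, mul_comm t (p : ℤ), zpow_mul]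
          _ = (x ^ a) ^ s := by rw [h2, one_zpow, mul_one]
      rw [h1]
      exact Subgroup.zpow_mem _ hy2 _
  have hcx : Nat.card ↥(Subgroup.zpowers x) = p := by rw [Nat.card_zpowers, hx]
  have hcz : Nat.card ↥(Subgroup.zpowers z) = p := by rw [Nat.card_zpowers, hz]
  refine ⟨⟨?_, ?_⟩, ?_⟩
  · exact isMulCommutative_sup_of_commute _ _ hcomm inferInstance inferInstance
  · intro a ha
    obtain ⟨b, hb, c, hc', rfl⟩ := mem_sup_of_commute _ _ hcomm ha
    have h1 : Commute b c := hcomm b hb c hc'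
    rw [h1.mul_pow]
    obtain ⟨i, rfl⟩ := Subgroup.mem_zpowers_iff.1 hb
    obtain ⟨j, rfl⟩ := Subgroup.mem_zpowers_iff.1 hc'
    have h2 : x ^ p = 1 := by rw [← hx, pow_orderOf_eq_one]
    have h3 : z ^ p = 1 := by rw [← hz, pow_orderOf_eq_one]
    rw [← zpow_natCast, ← zpow_mul, mul_comm, zpow_mul, zpow_natCast, h2, one_zpow,
      ← zpow_natCast, ← zpow_mul, mul_comm, zpow_mul, zpow_natCast, h3, one_zpow, mul_one]
  · rw [card_sup_of_commute _ _ hcomm hd, hcx, hcz, sq]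

end Cfsg.Agent.Lib.Helper61.BG40
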