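import Mathlib

/-!
# Uniqueness of subgroups of a given order in a finite cyclic group (element form)
-/

set_option autoImplicit false

namespace Cfsg.Agent.Lib.Helper61.BG40

universe u

/-- In a finite cyclic group, an element killed by `orderOf w` lies in `zpowers w`. -/
theorem mem_zpowers_of_pow_orderOf_eq_one {C : Type u} [Group C] [Finite C] [IsCyclic C] (w z : C)
    (h : z ^ orderOf w = 1) : z ∈ Subgroup.zpowers w := by
  classical
  haveI := Fintype.ofFinite C
  have hd : 0 < orderOf w := orderOf_pos w
  have hle := IsCyclic.card_pow_eq_one_le (α := C) hd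
  let S : Finset C := Finset.univ.filter (fun a : C => a ^ orderOf w = 1)
  let T : Finset C := Finset.univ.filter (fun a : C => a ∈ Subgroup.zpowers w)
  have hTS : T ⊆ S := by
    intro a ha
    simp only [T, Finset.mem_filter, Finset.mem_univ, true_and] at ha
    simp only [S, Finset.mem_filter, Finset.mem_univ, true_and]
    obtain ⟨k, rfl⟩ := Subgroup.mem_zpowers_iff.1 ha
    rw [← zpow_natCast, ← zpow_mul, mul_comm, zpow_mul, zpow_natCast, pow_orderOf_eq_one, one_zpow]
  have hT : T.card = orderOf w := by
    have h1 : T.card = Fintype.card (Subgroup.zpowers w) := by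
      rw [Fintype.card_subtype]
    rw [h1, Fintype.card_zpowers]
  have hST : S = T := (Finset.eq_of_subset_of_card_le hTS (by rw [hT]; exact hle)).symm
  have hz : z ∈ S := by
    simp only [S, Finset.mem_filter, Finset.mem_univ, true_and]
    exact h
  rw [hST] at hz
  simpa [T] using hz

/-- Subgroup version: inside a cyclic subgroup `Q` of a finite group. -/
theorem mem_zpowers_of_pow_orderOf_eq_one' {G : Type u} [Group G] [Finite G] (Q : Subgroup G)
    (hc : IsCyclic ↥Q) (w z : G) (hw : w ∈ Q) (hz : z ∈ Q) (h : z ^ orderOf w = 1) :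
    z ∈ Subgroup.zpowers w := by
  haveI := hc
  have h1 : (⟨z, hz⟩ : ↥Q) ^ orderOf (⟨w, hw⟩ : ↥Q) = 1 := by
    have h2 : orderOf (⟨w, hw⟩ : ↥Q) = orderOf w := by
      rw [← Subgroup.orderOf_coe]
    rw [h2]
    ext
    simpa using h
  obtain ⟨k, hk⟩ := Subgroup.mem_zpowers_iff.1 (mem_zpowers_of_pow_orderOf_eq_one _ _ h1)
  refine Subgroup.mem_zpowers_iff.2 ⟨k, ?_⟩
  have := congrArg (Subtype.val) hk
  simpa using this

end Cfsg.Agent.Lib.Helper61.BG40
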