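import Mathlib
import Cfsg.Agent.Lib.Helper69.BG40.Defs
import Cfsg.Agent.Lib.Helper35.BG.Hall

/-!
# S1440 project, abstract packages PKG3 (abelian of rank one is cyclic) and PKI0
-/

set_option autoImplicit false

namespace Cfsg.Agent.Lib.Helper61.BG40

open Cfsg

universe u

/-- Counting `n`-torsion in a finite abelian group from the prime case. -/
theorem card_pow_eq_one_le_of_prime {A : Type u} [Group A] [Fintype A] [DecidableEq A]
    (hcomm : ∀ a b : A, a * b = b * a)
    (h : ∀ q : ℕ, q.Prime → (Finset.univ.filter (fun a : A => a ^ q = 1)).card ≤ q) :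
    ∀ n : ℕ, 0 < n → (Finset.univ.filter (fun a : A => a ^ n = 1)).card ≤ n := by
  intro n
  induction n using Nat.strong_induction_on with
  | _ n ih =>
    intro hn
    rcases Nat.lt_or_ge 1 n with h1 | h1
    · have hqp : n.minFac.Prime := Nat.minFac_prime (by omega)
      obtain ⟨m, hm⟩ : n.minFac ∣ n := Nat.minFac_dvd n
      have hm0 : 0 < m := by
        rcases Nat.eq_zero_or_pos m with h0 | h0
        · rw [h0, mul_zero] at hm
          omega
        · exact h0
      have hmn : m < n := by
        have := hqp.two_le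
        calc m < 2 * m := by omega
          _ ≤ n.minFac * m := Nat.mul_le_mul_right _ this
          _ = n := hm.symm
      have ihm := ih m hmn hm0
      have himg : ((Finset.univ.filter (fun a : A => a ^ n = 1)).image (fun a => a ^ m)) ⊆
          Finset.univ.filter (fun a : A => a ^ n.minFac = 1) := by
        intro c hc
        simp only [Finset.mem_image, Finset.mem_filter, Finset.mem_univ, true_and] at hc ⊢
        obtain ⟨a, ha, rfl⟩ := hc
        rw [← pow_mul, mul_comm, ← hm]
        exact ha
      have hfib : ∀ c ∈ (Finset.univ.filter (fun a : A => a ^ n = 1)).image (fun a => a ^ m),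
          ((Finset.univ.filter (fun a : A => a ^ n = 1)).filter (fun x => x ^ m = c)).card ≤ m := by
        intro c hc
        obtain ⟨x0, hx0, rfl⟩ := Finset.mem_image.1 hc
        refine le_trans (Finset.card_le_card_of_injOn (fun x => x * x0⁻¹) ?_ ?_) ihm
        · intro x hx
          simp only [Finset.coe_filter, Finset.mem_filter, Finset.mem_univ, true_and,
            Set.mem_ofPred_eq] at hx ⊢
          have hc' : Commute x x0⁻¹ := hcomm _ _
          rw [hc'.mul_pow, inv_pow, hx.2, mul_inv_cancel]
        · intro x _ y _ hxy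
          exact mul_right_cancel hxy
      calc (Finset.univ.filter (fun a : A => a ^ n = 1)).card
          ≤ m * ((Finset.univ.filter (fun a : A => a ^ n = 1)).image (fun a => a ^ m)).card :=
            Finset.card_le_mul_card_image _ _ hfib
        _ ≤ m * n.minFac := Nat.mul_le_mul_left _ (le_trans (Finset.card_le_card himg) (h _ hqp))
        _ = n := by rw [mul_comm]; exact hm.symm
    · have h1' : n = 1 := by omega
      subst h1'
      rw [Finset.card_le_one]
      intro a ha b hb
      simp only [Finset.mem_filter, Finset.mem_univ, true_and, pow_one] at ha hb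
      rw [ha, hb]

theorem pkG3 : Cfsg.Agent.Lib.Helper69.BG40.PKG3.{u} := by
  intro G _ _ Q hab h
  classical
  haveI : Fintype ↥Q := Fintype.ofFinite _
  have hcomm : ∀ a b : ↥Q, a * b = b * a := hab.is_comm.comm
  apply isCyclic_of_card_pow_eq_one_le
  apply card_pow_eq_one_le_of_prime hcomm
  intro q hq
  let B : Subgroup G :=
    { carrier := {a | a ∈ Q ∧ a ^ q = 1}
      mul_mem' := by
        rintro a b ⟨ha, ha'⟩ ⟨hb, hb'⟩
        refine ⟨Q.mul_mem ha hb, ?_⟩
        have hc : Commute a b := congrArg Subtype.val (hcomm ⟨a, ha⟩ ⟨b, hb⟩)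
        rw [hc.mul_pow, ha', hb', mul_one]
      one_mem' := ⟨Q.one_mem, one_pow _⟩
      inv_mem' := by
        rintro a ⟨ha, ha'⟩
        exact ⟨Q.inv_mem ha, by rw [inv_pow, ha', inv_one]⟩ }
  have hBQ : B ≤ Q := fun a ha => ha.1
  have hBe : IsElementaryAbelian q B :=
    ⟨⟨⟨fun a b => Subtype.ext (show (a : G) * (b : G) = (b : G) * (a : G) from
        congrArg Subtype.val (hcomm ⟨a.1, hBQ a.2⟩ ⟨b.1, hBQ b.2⟩))⟩⟩,
      fun a ha => ha.2⟩
  have hB := h q hq B hBQ hBe
  have hle : (Finset.univ.filter (fun a : ↥Q => a ^ q = 1)).card ≤ Nat.card ↥B := by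
    rw [← Fintype.card_subtype, ← Nat.card_eq_fintype_card]
    apply Nat.card_le_card_of_injective
      (fun a : {a : ↥Q // a ^ q = 1} => (⟨a.1.1, a.1.2, by
        have := congrArg Subtype.val a.2
        simpa using this⟩ : ↥B))
    intro a b hab'
    have := congrArg Subtype.val hab'
    exact Subtype.ext (Subtype.ext this)
  exact le_trans hle hB

theorem pkI0 : Cfsg.Agent.Lib.Helper69.BG40.PKI0.{u} := by
  intro G _ _ M K hc
  refine ⟨?_, Cfsg.Agent.Lib.Helper35.BG.relIndex_right_of_isComplIn hc⟩
  obtain ⟨hKM, hFM, hinf, hprod⟩ := hc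
  apply Monoid.exponent_dvd_of_forall_pow_eq_one
  intro x
  induction x using QuotientGroup.induction_on with
  | H m =>
    obtain ⟨a, ha, b, hb, hm⟩ := hprod m.1 m.2
    obtain ⟨b', hb', rfl⟩ := Subgroup.mem_map.1 hb
    have hm' : m = ⟨a, hKM ha⟩ * b' := Subtype.ext hm
    have h1 : (QuotientGroup.mk m : ↥M ⧸ fittingHall ↥M) =
        QuotientGroup.mk (⟨a, hKM ha⟩ : ↥M) := by
      rw [hm']
      exact QuotientGroup.mk_mul_of_mem _ hb'
    rw [h1, ← QuotientGroup.mk_pow]
    have h2 : (⟨a, hKM ha⟩ : ↥M) ^ Monoid.exponent ↥K = 1 := by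
      apply Subtype.ext
      have := congrArg Subtype.val (Monoid.pow_exponent_eq_one (⟨a, ha⟩ : ↥K))
      simpa using this
    rw [h2]
    rfl

end Cfsg.Agent.Lib.Helper61.BG40
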