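import Mathlib
import Cfsg.Agent.Lib.Helper69.BG40.Defs
import Cfsg.Agent.Lib.Helper61.BG40.Cyc

/-!
# S1440 project, abstract packages PKG4 and PKG5c (cyclic groups)
-/

set_option autoImplicit false

namespace Cfsg.Agent.Lib.Helper61.BG40

universe u

theorem pkG4 : Cfsg.Agent.Lib.Helper69.BG40.PKG4.{u} := by
  intro G _ _ M Q hn hc w hw
  have key : ∀ m ∈ M, ∀ h ∈ Subgroup.zpowers w, m * h * m⁻¹ ∈ Subgroup.zpowers w := by
    intro m hm h hh
    have hhQ : h ∈ Q := (Subgroup.zpowers_le.2 hw) hh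
    have hmQ : m * h * m⁻¹ ∈ Q := by
      have := (Subgroup.mem_normalizer_iff.1 (hn hm) h).1 hhQ
      exact this
    refine mem_zpowers_of_pow_orderOf_eq_one' Q hc w _ hw hmQ ?_
    rw [conj_pow]
    obtain ⟨k, rfl⟩ := Subgroup.mem_zpowers_iff.1 hh
    rw [← zpow_natCast, ← zpow_mul, mul_comm, zpow_mul, zpow_natCast, pow_orderOf_eq_one, one_zpow]
    group
  intro m hm
  refine Subgroup.mem_normalizer_iff.2 (fun h => ⟨fun hh => key m hm h hh, fun hh => ?_⟩)
  have := key m⁻¹ (M.inv_mem hm) _ hh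
  have e : m⁻¹ * (m * h * m⁻¹) * m⁻¹⁻¹ = h := by group
  rw [e] at this
  exact this

theorem pkG5c : Cfsg.Agent.Lib.Helper69.BG40.PKG5c.{u} := by
  intro G _ _ X hc p _ hpX x hx hxo h
  have hp : p.Prime := Fact.out
  haveI := hc
  obtain ⟨g, hg⟩ := IsCyclic.exists_generator (α := ↥X)
  have hgo : orderOf g = Nat.card ↥X := orderOf_eq_card_of_forall_mem_zpowers hg
  have hgo' : orderOf (g : G) = Nat.card ↥X := by rw [Subgroup.orderOf_coe, hgo]
  have hN0 : Nat.card ↥X ≠ 0 := Nat.card_pos.ne'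
  have hNp := Nat.eq_prime_pow_of_unique_prime_dvd hN0 (fun {d} hd hdvd => hpX d hd hdvd)
  set n := (Nat.card ↥X).primeFactorsList.length with hn
  have hpdvd : p ∣ Nat.card ↥X := by
    rw [← hxo]
    have : orderOf (⟨x, hx⟩ : ↥X) = orderOf x := by rw [← Subgroup.orderOf_coe]
    rw [← this]
    exact orderOf_dvd_natCard _
  have hn1 : 1 ≤ n := by
    by_contra hlt
    have : n = 0 := by omega
    rw [this, pow_zero] at hNp
    rw [hNp] at hpdvd
    exact hp.one_lt.ne' (Nat.dvd_one.1 hpdvd)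
  by_contra hne
  have hn2 : 2 ≤ n := by
    by_contra hlt
    have : n = 1 := by omega
    rw [this, pow_one] at hNp
    exact hne hNp
  obtain ⟨m, hm⟩ : ∃ m, n = m + 2 := ⟨n - 2, by omega⟩
  have hy : ((g : G) ^ p ^ m) ∈ X := X.pow_mem g.2 _
  have h1 : ((g : G) ^ p ^ m) ^ p = (g : G) ^ p ^ (m + 1) := by
    rw [← pow_mul, ← pow_succ]
  have h2 : (((g : G) ^ p ^ m) ^ p) ^ orderOf x = 1 := by
    rw [hxo, h1, ← pow_mul, ← pow_succ, ← hm, ← hNp, ← hgo', pow_orderOf_eq_one]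
  have h3 := mem_zpowers_of_pow_orderOf_eq_one' X hc x _ hx (X.pow_mem hy _) h2
  have h4 := h _ hy h3
  rw [h1] at h4
  have h5 : orderOf (g : G) ∣ p ^ (m + 1) := orderOf_dvd_of_pow_eq_one h4
  rw [hgo', hNp, hm] at h5
  have := (Nat.pow_dvd_pow_iff_le_right hp.one_lt).1 h5
  omega

end Cfsg.Agent.Lib.Helper61.BG40
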