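import Mathlib
import Cfsg.Agent.Lib.Helper69.BG40.Defs
import Cfsg.Agent.Lib.Helper61.BG40.Prod
import Cfsg.Agent.Lib.Helper16.BG.NilHall

/-!
# S1440 project, abstract packages PKdecU, PKT, PKdec (Sylow decomposition `H = P × Q`)
-/

set_option autoImplicit false

namespace Cfsg.Agent.Lib.Helper61.BG40

open Cfsg Cfsg.Agent.Lib.Helper69.BG40

open scoped commutatorElement

universe u

variable {G : Type u} [Group G] [Finite G]

theorem dec_inf {p : ℕ} [Fact p.Prime] {H P Q : Subgroup G} (hd : Dec p H P Q) : P ⊓ Q = ⊥ := by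
  have hp : p.Prime := Fact.out
  rw [Subgroup.eq_bot_iff_card]
  have h1 : Nat.card ↥(P ⊓ Q) ∣ Nat.card ↥P := Subgroup.card_dvd_of_le inf_le_left
  have h2 : Nat.card ↥(P ⊓ Q) ∣ Nat.card ↥Q := Subgroup.card_dvd_of_le inf_le_right
  obtain ⟨n, hn⟩ := IsPGroup.iff_card.1 hd.hPp
  rw [hn] at h1
  have h3 : (Nat.card ↥(P ⊓ Q)).Coprime (p ^ n) :=
    Nat.Coprime.pow_right n (Nat.Coprime.coprime_dvd_left h2 hd.hQp)
  exact Nat.Coprime.eq_one_of_dvd h3 h1

theorem dec_sup {p : ℕ} [Fact p.Prime] {H P Q : Subgroup G} (hd : Dec p H P Q) : P ⊔ Q = H := by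
  apply Subgroup.eq_of_le_of_card_ge (sup_le hd.hP hd.hQ)
  rw [card_sup_of_commute P Q hd.hcomm (dec_inf hd), hd.hcard]

theorem dec_mem {p : ℕ} [Fact p.Prime] {H P Q : Subgroup G} (hd : Dec p H P Q) {y : G}
    (hy : y ∈ H) : ∃ a ∈ P, ∃ b ∈ Q, y = a * b := by
  rw [← dec_sup hd] at hy
  exact mem_sup_of_commute P Q hd.hcomm hy

theorem dec_mem_P {p : ℕ} [Fact p.Prime] {H P Q : Subgroup G} (hd : Dec p H P Q) {y : G}
    (hy : y ∈ H) (hyp : ∃ n : ℕ, y ^ p ^ n = 1) : y ∈ P := by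
  obtain ⟨n, hn⟩ := hyp
  obtain ⟨a, ha, b, hb, rfl⟩ := dec_mem hd hy
  have hc : Commute a b := hd.hcomm a ha b hb
  rw [hc.mul_pow] at hn
  have h1 : b ^ p ^ n = (a ^ p ^ n)⁻¹ := eq_inv_of_mul_eq_one_right hn
  have h2 : b ^ p ^ n ∈ P ⊓ Q :=
    Subgroup.mem_inf.2 ⟨h1 ▸ P.inv_mem (P.pow_mem ha _), Q.pow_mem hb _⟩
  rw [dec_inf hd, Subgroup.mem_bot] at h2
  have h3 : orderOf b ∣ p ^ n := orderOf_dvd_of_pow_eq_one h2
  have h4 : orderOf b ∣ Nat.card ↥Q := by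
    have : orderOf (⟨b, hb⟩ : ↥Q) = orderOf b := by rw [← Subgroup.orderOf_coe]
    rw [← this]
    exact orderOf_dvd_natCard _
  have h5 : (orderOf b).Coprime (p ^ n) :=
    Nat.Coprime.pow_right n (Nat.Coprime.coprime_dvd_left h4 hd.hQp)
  have h6 : orderOf b = 1 := Nat.Coprime.eq_one_of_dvd h5 h3
  rw [orderOf_eq_one_iff] at h6
  rw [h6, mul_one]
  exact ha

theorem dec_mem_Q {p : ℕ} [Fact p.Prime] {H P Q : Subgroup G} (hd : Dec p H P Q) {y : G}
    (hy : y ∈ H) (hyp : (orderOf y).Coprime p) : y ∈ Q := by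
  obtain ⟨a, ha, b, hb, rfl⟩ := dec_mem hd hy
  have hc : Commute a b := hd.hcomm a ha b hb
  have hn : (a * b) ^ orderOf (a * b) = 1 := pow_orderOf_eq_one _
  rw [hc.mul_pow] at hn
  have h1 : a ^ orderOf (a * b) = (b ^ orderOf (a * b))⁻¹ := eq_inv_of_mul_eq_one_left hn
  have h2 : a ^ orderOf (a * b) ∈ P ⊓ Q :=
    Subgroup.mem_inf.2 ⟨P.pow_mem ha _, h1 ▸ Q.inv_mem (Q.pow_mem hb _)⟩
  rw [dec_inf hd, Subgroup.mem_bot] at h2
  have h3 : orderOf a ∣ orderOf (a * b) := orderOf_dvd_of_pow_eq_one h2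
  obtain ⟨k, hk⟩ := hd.hPp ⟨a, ha⟩
  have hk' : a ^ p ^ k = 1 := by
    have := congrArg Subtype.val hk
    simpa using this
  have h4 : orderOf a ∣ p ^ k := orderOf_dvd_of_pow_eq_one hk'
  have h5 : (orderOf a).Coprime (p ^ k) :=
    Nat.Coprime.pow_right k (Nat.Coprime.coprime_dvd_left h3 hyp)
  have h6 : orderOf a = 1 := Nat.Coprime.eq_one_of_dvd h5 h4
  rw [orderOf_eq_one_iff] at h6
  rw [h6, one_mul]
  exact hb

/-- Elements of `P` are `p`-elements. -/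
theorem dec_P_pow {p : ℕ} {H P Q : Subgroup G} (hd : Dec p H P Q) {a : G} (ha : a ∈ P) :
    ∃ n : ℕ, a ^ p ^ n = 1 := by
  obtain ⟨k, hk⟩ := hd.hPp ⟨a, ha⟩
  refine ⟨k, ?_⟩
  have := congrArg Subtype.val hk
  simpa using this

/-- Elements of `Q` are `p'`-elements. -/
theorem dec_Q_coprime {p : ℕ} {H P Q : Subgroup G} (hd : Dec p H P Q) {b : G} (hb : b ∈ Q) :
    (orderOf b).Coprime p := by
  have h4 : orderOf b ∣ Nat.card ↥Q := by
    have : orderOf (⟨b, hb⟩ : ↥Q) = orderOf b := by rw [← Subgroup.orderOf_coe]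
    rw [← this]
    exact orderOf_dvd_natCard _
  exact Nat.Coprime.coprime_dvd_left h4 hd.hQp

/-- Anything normalizing `H` normalizes `P`. -/
theorem dec_normalizer_P {p : ℕ} [Fact p.Prime] {H P Q : Subgroup G} (hd : Dec p H P Q) {g : G}
    (hg : g ∈ Subgroup.normalizer (H : Set G)) : g ∈ Subgroup.normalizer (P : Set G) := by
  have key : ∀ g : G, g ∈ Subgroup.normalizer (H : Set G) → ∀ a ∈ P, g * a * g⁻¹ ∈ P := by
    intro g hg a ha
    have h1 : g * a * g⁻¹ ∈ H := (Subgroup.mem_normalizer_iff.1 hg a).1 (hd.hP ha)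
    obtain ⟨n, hn⟩ := dec_P_pow hd ha
    exact dec_mem_P hd h1 ⟨n, by rw [conj_pow, hn]; group⟩
  refine Subgroup.mem_normalizer_iff.2 (fun a => ⟨key g hg a, fun h => ?_⟩)
  have := key g⁻¹ (Subgroup.inv_mem _ hg) _ h
  have e : g⁻¹ * (g * a * g⁻¹) * g⁻¹⁻¹ = a := by group
  rw [e] at this
  exact this

/-- Anything normalizing `H` normalizes `Q`. -/
theorem dec_normalizer_Q {p : ℕ} [Fact p.Prime] {H P Q : Subgroup G} (hd : Dec p H P Q) {g : G}
    (hg : g ∈ Subgroup.normalizer (H : Set G)) : g ∈ Subgroup.normalizer (Q : Set G) := by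
  have key : ∀ g : G, g ∈ Subgroup.normalizer (H : Set G) → ∀ a ∈ Q, g * a * g⁻¹ ∈ Q := by
    intro g hg a ha
    have h1 : g * a * g⁻¹ ∈ H := (Subgroup.mem_normalizer_iff.1 hg a).1 (hd.hQ ha)
    have h2 : orderOf (g * a * g⁻¹) = orderOf a :=
      orderOf_injective (MulAut.conj g).toMonoidHom (MulAut.conj g).injective a
    exact dec_mem_Q hd h1 (h2 ▸ dec_Q_coprime hd ha)
  refine Subgroup.mem_normalizer_iff.2 (fun a => ⟨key g hg a, fun h => ?_⟩)
  have := key g⁻¹ (Subgroup.inv_mem _ hg) _ h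
  have e : g⁻¹ * (g * a * g⁻¹) * g⁻¹⁻¹ = a := by group
  rw [e] at this
  exact this

theorem pkDecU : Cfsg.Agent.Lib.Helper69.BG40.PKdecU.{u} := by
  intro G _ _ p _ H P Q hd
  refine ⟨dec_inf hd, fun y hy => dec_mem hd hy, fun y hy h => dec_mem_P hd hy h,
    fun y hy h => dec_mem_Q hd hy h, ?_, ?_⟩
  · intro hQ
    rw [Subgroup.commutator_le]
    intro y1 hy1 y2 hy2
    obtain ⟨a1, ha1, b1, hb1, rfl⟩ := dec_mem hd hy1
    obtain ⟨a2, ha2, b2, hb2, rfl⟩ := dec_mem hd hy2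
    have hQc : b1 * b2 = b2 * b1 := congrArg Subtype.val (hQ.is_comm.comm ⟨b1, hb1⟩ ⟨b2, hb2⟩)
    have h12 : a1 * b2 = b2 * a1 := hd.hcomm a1 ha1 b2 hb2
    have h21 : a2 * b1 = b1 * a2 := hd.hcomm a2 ha2 b1 hb1
    have h11 : a1 * b1 = b1 * a1 := hd.hcomm a1 ha1 b1 hb1
    have h22 : a2 * b2 = b2 * a2 := hd.hcomm a2 ha2 b2 hb2
    have e : ⁅a1 * b1, a2 * b2⁆ = ⁅a1, a2⁆ := by
      rw [commutatorElement_def, commutatorElement_def]
      have e1 : a1 * b1 * (a2 * b2) = a1 * a2 * (b1 * b2) := by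
        calc a1 * b1 * (a2 * b2) = a1 * (b1 * a2) * b2 := by group
          _ = a1 * (a2 * b1) * b2 := by rw [h21]
          _ = a1 * a2 * (b1 * b2) := by group
      have e2 : (a1 * b1)⁻¹ = a1⁻¹ * b1⁻¹ := by
        rw [h11, mul_inv_rev]
      have e3 : (a2 * b2)⁻¹ = a2⁻¹ * b2⁻¹ := by
        rw [h22, mul_inv_rev]
      have c1 : Commute (b1 * b2) a1⁻¹ :=
        (Commute.mul_left (show Commute b1 a1 from h11.symm)
          (show Commute b2 a1 from h12.symm)).inv_right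
      have c2 : Commute (b1 * b2) a2⁻¹ :=
        (Commute.mul_left (show Commute b1 a2 from h21.symm)
          (show Commute b2 a2 from h22.symm)).inv_right
      have e4 : b1 * b2 * b1⁻¹ * b2⁻¹ = 1 := by
        rw [hQc]; group
      calc a1 * b1 * (a2 * b2) * (a1 * b1)⁻¹ * (a2 * b2)⁻¹
          = a1 * a2 * ((b1 * b2) * a1⁻¹) * b1⁻¹ * (a2⁻¹ * b2⁻¹) := by
            rw [e1, e2, e3]; group
        _ = a1 * a2 * (a1⁻¹ * (b1 * b2)) * b1⁻¹ * (a2⁻¹ * b2⁻¹) := by rw [c1.eq]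
        _ = a1 * a2 * a1⁻¹ * ((b1 * b2) * b1⁻¹ * a2⁻¹) * b2⁻¹ := by group
        _ = a1 * a2 * a1⁻¹ * (b2 * a2⁻¹) * b2⁻¹ := by
            have : b1 * b2 * b1⁻¹ = b2 := by rw [hQc]; group
            rw [this]
        _ = a1 * a2 * a1⁻¹ * (a2⁻¹ * b2) * b2⁻¹ := by
            have c3 : Commute b2 a2⁻¹ := (show Commute b2 a2 from h22.symm).inv_right
            rw [c3.eq]
        _ = a1 * a2 * a1⁻¹ * a2⁻¹ := by group
    rw [e]
    exact Subgroup.commutator_mem_commutator ha1 ha2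
  · intro hP hQ
    have h1 := isMulCommutative_sup_of_commute P Q hd.hcomm hP hQ
    rw [dec_sup hd] at h1
    exact h1

theorem pkT : Cfsg.Agent.Lib.Helper69.BG40.PKT.{u} := by
  intro G _ _ p _ H P Q hd
  have hp : p.Prime := Fact.out
  have hHn : ∀ h ∈ H, h ∈ Subgroup.normalizer (H : Set G) := fun h hh => Subgroup.le_normalizer hh
  constructor
  · -- O_p(H) = P
    have hPn : (P.subgroupOf H).Normal := by
      refine ⟨fun a ha h => ?_⟩
      rw [Subgroup.mem_subgroupOf] at ha ⊢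
      have := (Subgroup.mem_normalizer_iff.1 (dec_normalizer_P hd (hHn h h.2)) a).1 ha
      simpa using this
    have hPp : IsPGroup p ↥(P.subgroupOf H) := hd.hPp.comap_subtype
    have e : pCore p ↥H = P.subgroupOf H := by
      apply le_antisymm
      · apply sSup_le
        rintro N ⟨hN, hNp⟩ y hy
        rw [Subgroup.mem_subgroupOf]
        obtain ⟨k, hk⟩ := hNp ⟨y, hy⟩
        refine dec_mem_P hd y.2 ⟨k, ?_⟩
        have := congrArg (fun t : ↥N => ((t : ↥H) : G)) hk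
        simpa using this
      · exact le_sSup ⟨hPn, hPp⟩
    rw [e, Subgroup.map_subgroupOf_eq_of_le hd.hP]
  · -- O_{p'}(H) = Q
    have hQn : (Q.subgroupOf H).Normal := by
      refine ⟨fun a ha h => ?_⟩
      rw [Subgroup.mem_subgroupOf] at ha ⊢
      have := (Subgroup.mem_normalizer_iff.1 (dec_normalizer_Q hd (hHn h h.2)) a).1 ha
      simpa using this
    have hQc : (Nat.card ↥(Q.subgroupOf H)).Coprime p := by
      have : Nat.card ↥(Q.subgroupOf H) = Nat.card ↥Q :=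
        Nat.card_congr (Subgroup.subgroupOfEquivOfLe hd.hQ).toEquiv
      rw [this]
      exact hd.hQp
    have e : pPrimeCore p ↥H = Q.subgroupOf H := by
      apply le_antisymm
      · apply sSup_le
        rintro N ⟨hN, hNp⟩ y hy
        rw [Subgroup.mem_subgroupOf]
        refine dec_mem_Q hd y.2 ?_
        have h1 : orderOf (y : G) = orderOf (⟨y, hy⟩ : ↥N) := by
          rw [← Subgroup.orderOf_coe, ← Subgroup.orderOf_coe]
        rw [h1]
        exact Nat.Coprime.coprime_dvd_left (orderOf_dvd_natCard _) hNp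
      · exact le_sSup ⟨hQn, hQc⟩
    rw [e, Subgroup.map_subgroupOf_eq_of_le hd.hQ]

theorem pkDec : Cfsg.Agent.Lib.Helper69.BG40.PKdec.{u} := by
  intro G _ _ M H hn hnil p _
  obtain ⟨P, Q, i, j, hPK, hQK, hPp, hQp, hcard, hcomm, -⟩ :=
    Cfsg.Agent.Lib.Helper16.BG.nil_decomp H hnil p
  have hd : Dec p H P Q := ⟨hPK, hQK, hPp, hQp, hcard, hcomm⟩
  exact ⟨P, Q, hd, fun m hm => dec_normalizer_P hd (hn hm),
    fun m hm => dec_normalizer_Q hd (hn hm)⟩

end Cfsg.Agent.Lib.Helper61.BG40
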