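import Mathlib
import Cfsg.Agent.Lib.Helper69.BG40.Defs

/-!
# S1440 project, abstract package PKpow

If `u` normalizes the group `⟨w⟩` of prime order `q`, then `u ^ (q - 1)` centralizes `w`.
-/

set_option autoImplicit false

namespace Cfsg.Agent.Lib.Helper61.BG40

universe u

/-- Iterated conjugation: if `u w u⁻¹ = w ^ k` then `uⁿ w u⁻ⁿ = w ^ (k ^ n)`. -/
theorem conj_pow_eq_zpow_pow {G : Type u} [Group G] (w u : G) (k : ℤ)
    (hk : u * w * u⁻¹ = w ^ k) (n : ℕ) : u ^ n * w * (u ^ n)⁻¹ = w ^ (k ^ n) := by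
  induction n with
  | zero => simp
  | succ n ih =>
    have h1 : u ^ (n + 1) * w * (u ^ (n + 1))⁻¹ = u * (u ^ n * w * (u ^ n)⁻¹) * u⁻¹ := by
      rw [pow_succ']
      group
    rw [h1, ih, ← conj_zpow, hk, ← zpow_mul, pow_succ']

theorem pkPow : Cfsg.Agent.Lib.Helper69.BG40.PKpow.{u} := by
  intro G _ q _ w u hw hu
  have hq : q.Prime := Fact.out
  obtain ⟨k, hk⟩ := Subgroup.mem_zpowers_iff.1 hu
  have hw1 : w ≠ 1 := by
    rintro rfl
    rw [orderOf_one] at hw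
    exact hq.one_lt.ne hw
  have hkq : ¬ (q : ℤ) ∣ k := by
    intro hdvd
    have h1 : w ^ k = 1 := by
      rw [← hw] at hdvd
      exact orderOf_dvd_iff_zpow_eq_one.1 hdvd
    rw [h1] at hk
    apply hw1
    have h2 : u * w * u⁻¹ = 1 := hk.symm
    have h3 : w = u⁻¹ * (u * w * u⁻¹) * u := by group
    rw [h3, h2]; group
  have hcop : IsCoprime k (q : ℤ) := by
    rw [isCoprime_comm]
    exact (Nat.prime_iff_prime_int.1 hq).coprime_iff_not_dvd.2 hkq
  have hfer : k ^ (q - 1) ≡ 1 [ZMOD q] := Int.ModEq.pow_card_sub_one_eq_one hq hcop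
  have h4 := conj_pow_eq_zpow_pow w u k hk.symm (q - 1)
  have h5 : w ^ (k ^ (q - 1)) = w ^ (1 : ℤ) := by
    rw [zpow_eq_zpow_iff_modEq, hw]
    exact hfer
  rw [h5, zpow_one] at h4
  calc u ^ (q - 1) * w = u ^ (q - 1) * w * (u ^ (q - 1))⁻¹ * u ^ (q - 1) := by group
    _ = w * u ^ (q - 1) := by rw [h4]

end Cfsg.Agent.Lib.Helper61.BG40
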